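import Cfsg.Agent.Lib.Helper35.ONOrd.X0.Chk1

namespace Cfsg.Agent.Lib.Helper35.ONOrd.X0

open Cfsg.Agent.Lib.Helper35

noncomputable def reach0 : ReachData ON122760.pt 122759 [[0], [1], [2], [3], [4], [5], [6], [7]] 0 122760 where
  sl := sl0
  hsl := rfl
  ot := ot0
  big := 19
  hchk := q0u548
  hcnt := m0n32
theorem fix0 : ∀ s ∈ ([[2], [3], [4], [5], [6], [7]] : List (List Nat)), pwalk ON122760.pt s 0 = 0 := by decide +kernel
noncomputable def reach1 : ReachData ON122760.pt 122759 [[2], [3], [4], [5], [6], [7], [5], [6], [7], [3, 2]] 6 52136 where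
  sl := sl1
  hsl := rfl
  ot := ot1
  big := 44
  hchk := q1u195
  hcnt := m1n32
theorem fix1 : ∀ s ∈ ([[5], [6], [7], [3, 2]] : List (List Nat)), pwalk ON122760.pt s 6 = 6 := by decide +kernel
noncomputable def reach2 : ReachData ON122760.pt 122759 [[5], [6], [7], [3, 2]] 17611 72 where
  sl := sl2
  hsl := rfl
  ot := ot2
  big := 9
  hchk := q2u32
  hcnt := m2n32
theorem fix2 : ∀ s ∈ ([] : List (List Nat)), pwalk ON122760.pt s 17611 = 17611 := by decide +kernel
theorem yfix0 : ∀ i, i < 122760 → pwalk ON122760.pt yl0.W i = i := fun i hi => fix_of_leaves' [yl0] 122760 y0u642 yl0.W (by simp) i hi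

end Cfsg.Agent.Lib.Helper35.ONOrd.X0
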